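import Mathlib
import Cfsg.Agent.H739.FarE1

/-!
# Root involutions without planes: fixed points of the torus on a line
-/

set_option autoImplicit false
set_option linter.unusedSectionVars false

namespace Cfsg.Agent.H739.FE

open Cfsg Cfsg.Agent.H737 Cfsg.Agent.H736.Hole Cfsg.Agent.H737.Far

variable {G : Type*} [Group G] {D : Set G} {F : Type} [Field F] [Fintype F]

section add

variable {a : F → G}

theorem a_zero (ha : ∀ s t, a (s + t) = a s * a t) : a 0 = 1 := by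
  have h2 := ha 0 0
  rw [add_zero] at h2
  calc a 0 = (a 0)⁻¹ * (a 0 * a 0) := by group
    _ = (a 0)⁻¹ * a 0 := by rw [← h2]
    _ = 1 := by group

theorem a_sq (two : ∀ s : F, s + s = 0) (ha : ∀ s t, a (s + t) = a s * a t) (s : F) :
    a s * a s = 1 := by rw [← ha, two, a_zero ha]

theorem a_inv (two : ∀ s : F, s + s = 0) (ha : ∀ s t, a (s + t) = a s * a t) (s : F) :
    (a s)⁻¹ = a s := inv_eq_of_mul_eq_one_left (a_sq two ha s)

theorem a_inj (two : ∀ s : F, s + s = 0) (ha : ∀ s t, a (s + t) = a s * a t)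
    (hne : ∀ s, s ≠ 0 → a s ≠ 1) {s t : F} (h : a s = a t) : s = t := by
  have h1 : a (s + t) = 1 := by rw [ha, h, a_sq two ha]
  have h2 : s + t = 0 := by
    by_contra h3
    exact hne _ h3 h1
  calc s = s + (t + t) := by rw [two, add_zero]
    _ = (s + t) + t := by ring
    _ = t := by rw [h2, zero_add]

end add

variable [Finite G] {f y p x : F → G}

/-- `u ↦ [d₁, y_u]` maps onto `E(f)`. -/
theorem comm_surj (R : R2 D) (c : NC D f y p x) {d : G} (hd : d ∈ D)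
    (hdf : Commute d (f 1)) (hdy : ¬ Commute d (y 1)) {e : G} (he : e ∈ EG D (f 1)) :
    ∃ u, y u * d * y u = d * e := by
  have hf1 := c.f_D 1 one_ne_zero
  have hy1 := c.y_D 1 one_ne_zero
  have hyne : ∀ s, s ≠ 0 → y s ≠ 1 := fun s hs => R.ne_one (c.y_D s hs)
  have hfne : ∀ s, s ≠ 0 → f s ≠ 1 := fun s hs => R.ne_one (c.f_D s hs)
  have hyE : ∀ u, y u ∈ EG D (y 1) := fun u => (c.y_iff _).2 ⟨u, rfl⟩
  have hyM : ∀ u, y u ∈ MG D (f 1) := by
    intro u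
    by_cases hu : u = 0
    · rw [hu, a_zero c.y_add]; exact one_mem _
    · exact mem_MG (c.y_D u hu) (c.fy 1 u).symm
  have hdM : d ∈ MG D (f 1) := mem_MG hd hdf
  have key : ∀ u, ∃ t, y u * d * y u = d * f t := by
    intro u
    obtain ⟨e, he, h1⟩ := R.MG_conj_eq hf1 (hyM u) hdM
    rw [a_inv c.two c.y_add] at h1
    obtain ⟨t, rfl⟩ := (c.f_iff e).1 he
    exact ⟨t, h1⟩
  choose φ hφ using key
  have hinj : Function.Injective φ := by
    intro u v huv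
    have h1 : y u * d * y u = y v * d * y v := by rw [hφ, hφ, huv]
    have h2 : Commute d (y (u + v)) := by
      show d * y (u + v) = y (u + v) * d
      have h3 : y (u + v) = y v * y u := by rw [add_comm, c.y_add]
      have h4 := a_sq c.two c.y_add u
      have h5 := a_sq c.two c.y_add v
      rw [h3]
      calc d * (y v * y u) = (y v * y v) * d * y v * y u := by rw [h5]; group
        _ = y v * (y v * d * y v) * y u := by group
        _ = y v * (y u * d * y u) * y u := by rw [h1]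
        _ = y v * y u * d * (y u * y u) := by group
        _ = y v * y u * d := by rw [h4, mul_one]
    by_contra hne
    have hne' : u + v ≠ 0 := by
      intro h0
      apply hne
      calc u = u + (v + v) := by rw [c.two, add_zero]
        _ = (u + v) + v := by ring
        _ = v := by rw [h0, zero_add]
    exact hdy (R.comm_of hy1 hd (hyE _) (hyne _ hne') h2)
  obtain ⟨t, rfl⟩ := (c.f_iff e).1 he
  obtain ⟨u, hu⟩ := Finite.surjective_of_injective hinj t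
  exact ⟨u, by rw [hφ, hu]⟩

/-- `E(y)` is transitive on the points `≠ f` of a line on `f`. -/
theorem pt_trans (R : R2 D) (c : NC D f y p x) {d d₁ : G} (hd : d ∈ D) (hd₁ : d₁ ∈ D)
    (hdf : Commute d (f 1)) (hd₁f : Commute d₁ (f 1)) (hdd : Commute d₁ d)
    (hdy : ¬ Commute d (y 1)) (hd₁y : ¬ Commute d₁ (y 1)) : ∃ u, y u * d * y u ∈ EG D d₁ := by
  have hf1 := c.f_D 1 one_ne_zero
  have hy1 := c.y_D 1 one_ne_zero
  have hfd₁ : ¬ SimR D (f 1) d₁ := fun h =>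
    hd₁y ((comm_sim R hf1 hd₁ hy1 h).1 (c.fy 1 1).symm).symm
  have hc := col R hd₁ hf1 hd₁f.symm hfd₁
  have hdL := R.line d₁ hd₁ (f 1) hf1 d hd hd₁f.symm hfd₁ hdd.symm hdf
  obtain ⟨s, hs', t, ht, hst⟩ := (R.N.mem_LS hc).1 hdL
  obtain ⟨u, hu⟩ := comm_surj R c hd hdf hdy ht
  refine ⟨u, ?_⟩
  rw [hu, hst, mul_assoc, R.EG_sq hf1 ht, mul_one]
  exact hs'

/-- `E(y)` is regular on the points `≠ f` of a line on `f`. -/
theorem pt_reg (R : R2 D) (c : NC D f y p x) {d : G} (hd : d ∈ D)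
    (hdf : Commute d (f 1)) (hdy : ¬ Commute d (y 1)) {u : F} (hu : y u * d * y u ∈ EG D d) :
    u = 0 := by
  have hf1 := c.f_D 1 one_ne_zero
  have hy1 := c.y_D 1 one_ne_zero
  by_contra hu0
  have hyu := c.y_D u hu0
  have hdM : d ∈ MG D (f 1) := mem_MG hd hdf
  have hyM : y u ∈ MG D (f 1) := mem_MG hyu (c.fy 1 u).symm
  obtain ⟨e, he, h1⟩ := R.MG_conj_eq hf1 hyM hdM
  rw [R.inv hyu] at h1
  have hfd : ¬ SimR D (f 1) d := fun h =>
    hdy ((comm_sim R hf1 hd hy1 h).1 (c.fy 1 1).symm).symm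
  have h2 : e ∈ EG D d := by
    have : e = d⁻¹ * (y u * d * y u) := by rw [h1]; group
    rw [this]; exact mul_mem (inv_mem (R.self_mem hd)) hu
  have h3 := R.EG_inter hf1 hd hfd he h2
  rw [h3, mul_one] at h1
  have h4 : Commute d (y u) := by
    show d * y u = y u * d
    calc d * y u = (y u * d * y u) * y u := by rw [h1]
      _ = y u * d * (y u * y u) := by group
      _ = y u * d := by rw [R.sq hyu, mul_one]
  exact hdy (R.comm_of hy1 hd ((c.y_iff _).2 ⟨u, rfl⟩) (R.ne_one hyu) h4)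

/-- The classes of conjugates. -/
theorem EG_conj_mem (R : R2 D) {a b : G} (hb : b ∈ D) (h : a ∈ EG D b) (h1 : a ≠ 1) (k : G)
    {t : G} (ht : t ∈ EG D a) : k * t * k⁻¹ ∈ EG D (k * b * k⁻¹) := by
  have h2 : EG D a = EG D b := R.EG_eq hb h h1
  rw [h2] at ht
  exact R.EG_conj ht k

theorem mem_EG_symm (R : R2 D) {a b : G} (ha : a ∈ D) (hb : b ∈ D) (h : a ∈ EG D b) :
    b ∈ EG D a := R.mem_of_sim hb (R.sim hb h (R.ne_one ha)).symm

theorem mem_EG_trans (R : R2 D) {a b e : G} (ha : a ∈ D) (hb : b ∈ D) (he : e ∈ D)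
    (h : a ∈ EG D b) (h' : b ∈ EG D e) : a ∈ EG D e :=
  R.mem_of_sim ha ((R.sim hb h (R.ne_one ha)).trans (R.sim he h' (R.ne_one hb)))

/-- the torus fixes exactly one point `≠ f` on an invariant line `fd`, `d` not commuting with `y`. -/
theorem exists_fixed_point (R : R2 D) (c : NC D f y p x) {d : G} (hd : d ∈ D)
    (hdf : Commute d (f 1)) (hdy : ¬ Commute d (y 1))
    (hinv : ∀ s : F, s ≠ 0 → Commute (hN f x s * d * (hN f x s)⁻¹) d) :
    ∃ d₀ ∈ D, Commute d₀ d ∧ Commute d₀ (f 1) ∧ ¬ Commute d₀ (y 1) ∧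
      (∀ s : F, s ≠ 0 → hN f x s * d₀ * (hN f x s)⁻¹ ∈ EG D d₀) ∧
      (∀ d₁ ∈ D, Commute d₁ d → Commute d₁ (f 1) → ¬ Commute d₁ (y 1) → (∃ s : F, s ≠ 0 ∧ s ≠ 1 ∧
        hN f x s * d₁ * (hN f x s)⁻¹ ∈ EG D d₁) → d₁ ∈ EG D d₀) := by
  have hf1 := c.f_D 1 one_ne_zero
  have hy1 := c.y_D 1 one_ne_zero
  obtain ⟨t, ht0, ht1⟩ := c.q
  have ysq := a_sq c.two c.y_add
  have yinv := a_inv c.two c.y_add
  -- behaviour of `h_s`
  have hyc : ∀ s, s ≠ 0 → ∀ u, hN f x s * y u = y (u * s⁻¹) * hN f x s := by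
    intro s hs u
    rw [← NC.h_y c hs u]; group
  have hfc : ∀ s, s ≠ 0 → ∀ e ∈ EG D (f 1), hN f x s * e * (hN f x s)⁻¹ ∈ EG D (f 1) := by
    intro s hs e he
    obtain ⟨u, rfl⟩ := (c.f_iff e).1 he
    rw [NC.h_f R c hs]; exact (c.f_iff _).2 ⟨_, rfl⟩
  have hcf : ∀ s, s ≠ 0 → ∀ e ∈ D, Commute e (f 1) →
      Commute (hN f x s * e * (hN f x s)⁻¹) (f 1) := by
    intro s hs e he hef
    have h1 : Commute (hN f x s * e * (hN f x s)⁻¹) (hN f x s * f 1 * (hN f x s)⁻¹) :=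
      conj_commute_iff.2 hef
    have h2 := hfc s hs _ (R.self_mem hf1)
    exact R.comm_of hf1 (R.h.conj_mem e he _) h2 (R.ne_one (R.h.conj_mem _ hf1 _)) h1
  have hcy : ∀ s, s ≠ 0 → ∀ e ∈ D, ¬ Commute e (y 1) →
      ¬ Commute (hN f x s * e * (hN f x s)⁻¹) (y 1) := by
    intro s hs e he hey hh
    apply hey
    have h1 : hN f x s * y s * (hN f x s)⁻¹ = y 1 := by
      rw [NC.h_y c hs, mul_inv_cancel₀ hs]
    rw [← h1, conj_commute_iff] at hh
    exact R.comm_of hy1 he ((c.y_iff _).2 ⟨s, rfl⟩) (R.ne_one (c.y_D s hs)) hh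
  -- conjugates by `y u`
  have yD : ∀ u, ∀ e ∈ D, y u * e * y u ∈ D := by
    intro u e he
    have := R.h.conj_mem e he (y u)
    rwa [yinv] at this
  have ycf : ∀ u, ∀ e ∈ D, Commute e (f 1) → Commute (y u * e * y u) (f 1) := by
    intro u e he hef
    have h1 : Commute (y u * e * (y u)⁻¹) (y u * f 1 * (y u)⁻¹) := conj_commute_iff.2 hef
    rw [yinv, ← (c.fy 1 u).eq, mul_assoc (f 1), ysq, mul_one] at h1
    exact h1
  have ycy : ∀ u, ∀ e, ¬ Commute e (y 1) → ¬ Commute (y u * e * y u) (y 1) := by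
    intro u e hey hh
    apply hey
    have h1 : y u * y 1 * (y u)⁻¹ = y 1 := by
      rw [← c.y_add, add_comm, c.y_add, mul_assoc, mul_inv_cancel, mul_one]
    have h2 : Commute (y u * e * (y u)⁻¹) (y u * y 1 * (y u)⁻¹) := by rw [h1, yinv]; exact hh
    exact conj_commute_iff.1 h2
  -- commuting with points of the line
  have hfd : ∀ e ∈ D, ¬ Commute e (y 1) → ¬ SimR D e (f 1) := by
    intro e he hey hs
    exact hey ((comm_sim R he hf1 hy1 hs).2 (c.fy 1 1).symm).symm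
  have hline : ∀ a ∈ D, ∀ b ∈ D, ∀ e ∈ D, Commute a (f 1) → Commute b (f 1) → Commute e (f 1) →
      ¬ Commute b (y 1) → Commute a b → Commute b e → Commute a e := by
    intro a ha b hb e he haf hbf hef hby hab hbe
    exact line_trans R hf1 ha hb he haf hbf hef (hfd b hb hby) hab hbe
  -- `y u d y u` is on the line of `d`
  have hyd : ∀ u, ∀ e ∈ D, Commute e (f 1) → Commute (y u * e * y u) e := by
    intro u e he hef
    have hyM : y u ∈ MG D (f 1) := by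
      by_cases hu : u = 0
      · rw [hu, a_zero c.y_add]; exact one_mem _
      · exact mem_MG (c.y_D u hu) (c.fy 1 u).symm
    obtain ⟨k, hk, h1⟩ := R.MG_conj_eq hf1 hyM (mem_MG he hef)
    rw [yinv] at h1
    rw [h1]
    exact (Commute.refl e).mul_left (R.comm_EG hf1 he hef hk).symm
  -- the fixed point
  set h : G := hN f x t with hh
  obtain ⟨a, ha⟩ := pt_trans R c (R.h.conj_mem d hd h) hd (hcf t ht0 d hd hdf) hdf
    (hinv t ht0).symm (hcy t ht0 d hd hdy) hdy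
  -- `1 + t⁻¹ ≠ 0`
  have hb0 : 1 + t⁻¹ ≠ 0 := by
    intro h0
    apply ht1
    have h1 : t⁻¹ = 1 := by
      calc t⁻¹ = (1 + 1) + t⁻¹ := by rw [c.two, zero_add]
        _ = 1 + (1 + t⁻¹) := by ring
        _ = 1 := by rw [h0, add_zero]
    exact inv_eq_one.1 h1
  set u : F := a * (1 + t⁻¹)⁻¹ with hu
  have hua : u * t⁻¹ + a = u := by
    have h1 : u * (1 + t⁻¹) = a := by rw [hu, mul_assoc, inv_mul_cancel₀ hb0, mul_one]
    calc u * t⁻¹ + a = u * t⁻¹ + u * (1 + t⁻¹) := by rw [h1]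
      _ = u + (u * t⁻¹ + u * t⁻¹) := by ring
      _ = u := by rw [c.two, add_zero]
  set d₀ : G := y u * d * y u with hd₀
  have hd₀D : d₀ ∈ D := yD u d hd
  have hd₀f : Commute d₀ (f 1) := ycf u d hd hdf
  have hd₀y : ¬ Commute d₀ (y 1) := ycy u d hdy
  have hd₀d : Commute d₀ d := hyd u d hd hdf
  -- fixed by `h`
  have hfix : h * d₀ * h⁻¹ ∈ EG D d₀ := by
    have e1 : h * d₀ * h⁻¹ = y (u * t⁻¹) * (h * d * h⁻¹) * y (u * t⁻¹) := by
      have h1 := hyc t ht0 u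
      calc h * d₀ * h⁻¹ = (h * y u) * d * (y u * h⁻¹) := by rw [hd₀]; group
        _ = (h * y u) * d * ((h * y u)⁻¹) := by rw [mul_inv_rev, yinv]
        _ = (y (u * t⁻¹) * h) * d * (y (u * t⁻¹) * h)⁻¹ := by rw [h1]
        _ = _ := by rw [mul_inv_rev, yinv]; group
    have e2 : h * d * h⁻¹ = y a * (y a * (h * d * h⁻¹) * y a) * y a := by
      calc h * d * h⁻¹ = (y a * y a) * (h * d * h⁻¹) * (y a * y a) := by rw [ysq]; group
        _ = _ := by group
    have e3 : h * d₀ * h⁻¹ = y u * (y a * (h * d * h⁻¹) * y a) * (y u)⁻¹ := by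
      rw [e1]
      have h5 : y (u * t⁻¹) * y a = y u := by rw [← c.y_add, hua]
      have h6 : y a * y (u * t⁻¹) = y u := by rw [← c.y_add, add_comm, hua]
      calc y (u * t⁻¹) * (h * d * h⁻¹) * y (u * t⁻¹)
          = y (u * t⁻¹) * (y a * (y a * (h * d * h⁻¹) * y a) * y a) * y (u * t⁻¹) := by rw [← e2]
        _ = (y (u * t⁻¹) * y a) * (y a * (h * d * h⁻¹) * y a) * (y a * y (u * t⁻¹)) := by group
        _ = _ := by rw [h5, h6, yinv]
    rw [e3]
    have h7 := R.EG_conj ha (y u)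
    have e4 : y u * d * (y u)⁻¹ = d₀ := by rw [hd₀, yinv]
    rwa [e4] at h7
  -- uniqueness
  have huniq : ∀ d₁ ∈ D, Commute d₁ d → Commute d₁ (f 1) → ¬ Commute d₁ (y 1) →
      ∀ k : G, ∀ s : F, s ≠ 1 → (∀ v, k * y v = y (v * s⁻¹) * k) → k * d₀ * k⁻¹ ∈ EG D d₀ →
      k * d₁ * k⁻¹ ∈ EG D d₁ → d₁ ∈ EG D d₀ := by
    intro d₁ hd₁ hd₁d hd₁f hd₁y k s hs1 hk hk0 hk1
    -- `y b d₀ y b ∈ E(d₁)`
    have hcomm : Commute d₁ d₀ :=
      hline d₁ hd₁ d hd d₀ hd₀D hd₁f hdf hd₀f hdy hd₁d hd₀d.symm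
    obtain ⟨b, hb⟩ := pt_trans R c hd₀D hd₁ hd₀f hd₁f hcomm hd₀y hd₁y
    set m : G := y b * d₀ * y b with hm
    have hmD : m ∈ D := yD b d₀ hd₀D
    -- `k m k⁻¹ ∈ E(m)`
    have h1 : k * m * k⁻¹ ∈ EG D m := by
      have h2 : m ∈ EG D d₁ := hb
      have h3 : k * m * k⁻¹ ∈ EG D (k * d₁ * k⁻¹) := R.EG_conj h2 k
      have h4 := mem_EG_trans R (R.h.conj_mem m hmD k) (R.h.conj_mem d₁ hd₁ k) hd₁ h3 hk1
      exact mem_EG_trans R (R.h.conj_mem m hmD k) hd₁ hmD h4 (mem_EG_symm R hmD hd₁ h2)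
    have e1 : k * m * k⁻¹ = y (b * s⁻¹) * (k * d₀ * k⁻¹) * (y (b * s⁻¹))⁻¹ := by
      have h5 := hk b
      calc k * m * k⁻¹ = (k * y b) * d₀ * (k * (y b)⁻¹)⁻¹ := by rw [hm]; group
        _ = (k * y b) * d₀ * (k * y b)⁻¹ := by rw [yinv]
        _ = (y (b * s⁻¹) * k) * d₀ * (y (b * s⁻¹) * k)⁻¹ := by rw [h5]
        _ = _ := by group
    -- so `y (b s⁻¹) d₀ y (b s⁻¹) ∈ E(m)`
    have h2 : y (b * s⁻¹) * d₀ * y (b * s⁻¹) ∈ EG D m := by
      have h6 : y (b * s⁻¹) * (k * d₀ * k⁻¹) * (y (b * s⁻¹))⁻¹ ∈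
          EG D (y (b * s⁻¹) * d₀ * (y (b * s⁻¹))⁻¹) := R.EG_conj hk0 _
      rw [← e1, yinv] at h6
      have h7 := mem_EG_symm R (R.h.conj_mem m hmD k) (yD _ d₀ hd₀D) h6
      exact mem_EG_trans R (yD _ d₀ hd₀D) (R.h.conj_mem m hmD k) hmD h7 h1
    have h3 : y (b + b * s⁻¹) * d₀ * y (b + b * s⁻¹) ∈ EG D d₀ := by
      have h8 := R.EG_conj h2 (y b)
      have e2 : y b * m * (y b)⁻¹ = d₀ := by
        rw [hm, yinv]
        calc y b * (y b * d₀ * y b) * y b = (y b * y b) * d₀ * (y b * y b) := by group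
          _ = d₀ := by rw [ysq, one_mul, mul_one]
      rw [e2] at h8
      have e3 : y b * (y (b * s⁻¹) * d₀ * y (b * s⁻¹)) * (y b)⁻¹ =
          y (b + b * s⁻¹) * d₀ * y (b + b * s⁻¹) := by
        have e4 : y (b + b * s⁻¹) = y (b * s⁻¹) * y b := by rw [add_comm, c.y_add]
        rw [yinv]
        nth_rw 2 [e4]
        rw [c.y_add]; group
      rwa [e3] at h8
    have h4 := pt_reg R c hd₀D hd₀f hd₀y h3
    have hb0' : b = 0 := by
      by_contra hbne
      apply hs1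
      have h5 : b * s⁻¹ = b := by
        calc b * s⁻¹ = (b + b) + b * s⁻¹ := by rw [c.two, zero_add]
          _ = b + (b + b * s⁻¹) := by ring
          _ = b := by rw [h4, add_zero]
      have h6 : s⁻¹ = 1 := mul_left_cancel₀ hbne (by rw [h5, mul_one])
      exact inv_eq_one.1 h6
    have hm0 : m = d₀ := by
      rw [hm, hb0', a_zero c.y_add, one_mul, mul_one]
    have hb' : m ∈ EG D d₁ := hb
    rw [hm0] at hb'
    exact mem_EG_symm R hd₀D hd₁ hb'
  -- fixed by the whole torus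
  have hall : ∀ s : F, s ≠ 0 → hN f x s * d₀ * (hN f x s)⁻¹ ∈ EG D d₀ := by
    intro s hs
    have hcomm : hN f x s * h = h * hN f x s := by
      rw [hh, ← NC.h_mul c hs ht0, ← NC.h_mul c ht0 hs, mul_comm]
    set d₁ : G := hN f x s * d₀ * (hN f x s)⁻¹ with hd₁
    have hd₁D : d₁ ∈ D := R.h.conj_mem d₀ hd₀D _
    have hd₁f : Commute d₁ (f 1) := hcf s hs d₀ hd₀D hd₀f
    have hd₁y : ¬ Commute d₁ (y 1) := hcy s hs d₀ hd₀D hd₀y
    have hd₁d : Commute d₁ d := by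
      have h1 : Commute d₁ (hN f x s * d * (hN f x s)⁻¹) := conj_commute_iff.2 hd₀d
      exact hline d₁ hd₁D _ (R.h.conj_mem d hd _) d hd hd₁f (hcf s hs d hd hdf) hdf
        (hcy s hs d hd hdy) h1 (hinv s hs)
    refine huniq d₁ hd₁D hd₁d hd₁f hd₁y h t ht1 (hyc t ht0) hfix ?_
    have e1 : h * d₁ * h⁻¹ = hN f x s * (h * d₀ * h⁻¹) * (hN f x s)⁻¹ := by
      calc h * d₁ * h⁻¹ = (h * hN f x s) * d₀ * (h * hN f x s)⁻¹ := by rw [hd₁]; group
        _ = (hN f x s * h) * d₀ * (hN f x s * h)⁻¹ := by rw [hcomm]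
        _ = _ := by group
    rw [e1]
    exact R.EG_conj hfix _
  refine ⟨d₀, hd₀D, hd₀d, hd₀f, hd₀y, hall, ?_⟩
  rintro d₁ hd₁ hd₁d hd₁f hd₁y ⟨s, hs0, hs1, hs⟩
  exact huniq d₁ hd₁ hd₁d hd₁f hd₁y (hN f x s) s hs1 (hyc s hs0) (hall s hs0) hs

end Cfsg.Agent.H739.FE
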