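import Mathlib
import Cfsg.Agent.H739.FarE2
import Cfsg.Agent.H731.FarR
import Cfsg.Agent.H737.FarB

/-!
# Root involutions without planes: auxiliary results for the end of the proof
-/

set_option autoImplicit false
set_option linter.unusedSectionVars false

namespace Cfsg.Agent.H739.FE

open Cfsg Cfsg.Agent.H737 Cfsg.Agent.H736.Hole Cfsg.Agent.H737.Far

variable {G : Type*} [Group G] {D : Set G} {F : Type} [Field F] [Fintype F]
variable [Finite G] {f y p x : F → G}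

/-! ### Points fixed by an element -/

/-- `k` fixes the point of `a`. -/
def Fix (D : Set G) (k a : G) : Prop := SimR D (k * a * k⁻¹) a

theorem Fix.mul (R : R2 D) {k l a : G} (h1 : Fix D k a) (h2 : Fix D l a) : Fix D (k * l) a := by
  unfold Fix at *
  have h3 := (simR_conj_iff R.h k _ _).2 h2
  have e : k * l * a * (k * l)⁻¹ = k * (l * a * l⁻¹) * k⁻¹ := by group
  rw [e]; exact h3.trans h1

theorem Fix.inv (R : R2 D) {k a : G} (h : Fix D k a) : Fix D k⁻¹ a := by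
  unfold Fix at *
  have h3 := (simR_conj_iff R.h k⁻¹ _ _).2 h
  have e : k⁻¹ * (k * a * k⁻¹) * k⁻¹⁻¹ = a := by group
  rw [e] at h3; exact h3.symm

theorem Fix.sim (R : R2 D) {k a b : G} (h : Fix D k a) (hs : SimR D b a) : Fix D k b := by
  unfold Fix at *
  exact ((simR_conj_iff R.h k _ _).2 hs).trans (h.trans hs.symm)

theorem Fix.commute_iff (R : R2 D) {k a b : G} (ha : a ∈ D) (hb : b ∈ D) (h : Fix D k a) :
    Commute (k * b * k⁻¹) a ↔ Commute b a := by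
  rw [← comm_sim R (R.h.conj_mem a ha k) ha (R.h.conj_mem b hb k) h]
  exact conj_commute_iff

theorem Fix.opp_iff (R : R2 D) {k a b : G} (ha : a ∈ D) (hb : b ∈ D) (h : Fix D k a) :
    Opp (k * b * k⁻¹) a ↔ Opp b a := by
  rw [← opp_sim' R (R.h.conj_mem a ha k) ha (R.h.conj_mem b hb k) h]
  exact opp_conj k b a

theorem near_conj (R : R2 D) {a b : G} (h : Near D a b) (k : G) :
    Near D (k * a * k⁻¹) (k * b * k⁻¹) := by
  obtain ⟨h1, m, hm, h2, h3⟩ := h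
  refine ⟨(opp_conj k a b).2 h1, k * m * k⁻¹, R.h.conj_mem m hm k, conj_commute_iff.2 h2, ?_⟩
  rw [opp_conj]; exact h3

theorem near_sim_right (R : R2 D) {a b b' : G} (ha : a ∈ D) (hb : b ∈ D) (hb' : b' ∈ D)
    (h : Near D a b) (hs : SimR D b' b) : Near D a b' := by
  obtain ⟨h1, m, hm, h2, h3⟩ := h
  refine ⟨(opp_sim' R hb' hb ha hs).2 h1, m, hm, h2, ?_⟩
  rw [opp_sim' R hb' hb hm hs]; exact h3

theorem near_sim_left (R : R2 D) {a a' b : G} (ha : a ∈ D) (ha' : a' ∈ D) (hb : b ∈ D)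
    (h : Near D a b) (hs : SimR D a' a) : Near D a' b := by
  obtain ⟨h1, m, hm, h2, h3⟩ := h
  exact ⟨(opp_sim R ha' ha hb hs).2 h1, m, hm, (comm_sim R ha' ha hm hs).2 h2, h3⟩

theorem near_symm (R : R2 D) {a b : G} (ha : a ∈ D) (hb : b ∈ D) (h : Near D a b) :
    Near D b a := by
  obtain ⟨h1, m, hm, h2, h3⟩ := h
  obtain ⟨h4, p, hp, hpm, hpb, hap, -⟩ := path_of_near R ha hb hm h1 h2 h3
  exact ⟨R.opp_symm ha hb h1, p, hp, hpb, not_opp_of_comm R ha hm hp h2.symm hpm⟩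

/-- Far pairs are symmetric. -/
theorem far_symm (R : R2 D) {d x : G} (hd : d ∈ D) (hx : x ∈ D)
    (hfar : ∀ z ∈ D, Commute z d → Opp z x) : ∀ z ∈ D, Commute z x → Opp z d := by
  intro z hz hzx
  have hdx : Opp d x := hfar d hd (Commute.refl d)
  by_contra hno
  have h1 : ¬ Commute z d := fun hh => R.opp_ncomm hz hx (hfar z hz hh) hzx
  obtain ⟨m, hm, hmz, hmd, -⟩ := R.exists_mid hz hd h1 hno
  exact not_opp_of_comm R hx hz hm hzx.symm hmz (hfar m hm hmd)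

/-- `M_a` fixes all lines on `a`. -/
theorem MG_line (R : R2 D) {a g u : G} (ha : a ∈ D) (hu : u ∈ MG D a) (hg : g ∈ D)
    (hga : Commute g a) : Commute (u * g * u⁻¹) g := by
  obtain ⟨e, he, h1⟩ := R.MG_conj_eq ha hu (mem_MG hg hga)
  rw [h1]
  exact (Commute.refl g).mul_left (R.comm_EG ha hg hga he).symm

/-! ### Three lines on a point -/

/-- There are three lines on `c`. -/
def Three (D : Set G) (c : G) : Prop := ∃ a ∈ D, ∃ b ∈ D, ∃ e ∈ D, Commute a c ∧ Commute b c ∧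
  Commute e c ∧ ¬ Commute a b ∧ ¬ Commute a e ∧ ¬ Commute b e

theorem three_conj (R : R2 D) {c : G} (h : Three D c) (k : G) : Three D (k * c * k⁻¹) := by
  obtain ⟨a, ha, b, hb, e, he, h1, h2, h3, h4, h5, h6⟩ := h
  exact ⟨k * a * k⁻¹, R.h.conj_mem a ha k, k * b * k⁻¹, R.h.conj_mem b hb k, k * e * k⁻¹,
    R.h.conj_mem e he k, conj_commute_iff.2 h1, conj_commute_iff.2 h2, conj_commute_iff.2 h3,
    fun h => h4 (conj_commute_iff.1 h), fun h => h5 (conj_commute_iff.1 h),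
    fun h => h6 (conj_commute_iff.1 h)⟩

theorem three_all (R : R2 D) {c d : G} (hc : c ∈ D) (hd : d ∈ D) (h : Three D c) : Three D d := by
  obtain ⟨g, hg⟩ := exists_conj_of_connected R.h R.hc hc hd
  rw [← hg]; exact three_conj R h g

/-- A third line different from two given lines. -/
theorem third (R : R2 D) {c a b : G} (hc : c ∈ D) (h : Three D c) (ha : a ∈ D) (hb : b ∈ D)
    (hac : Commute a c) (hbc : Commute b c) (hab : ¬ Commute a b) :
    ∃ e ∈ D, Commute e c ∧ ¬ Commute e a ∧ ¬ Commute e b := by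
  obtain ⟨t₁, h1, t₂, h2, t₃, h3, c1, c2, c3, n12, n13, n23⟩ := h
  have key : ∀ m ∈ D, Commute m c → ¬ SimR D m c → ∀ u ∈ D, ∀ v ∈ D, Commute u c → Commute v c →
      Commute u m → Commute v m → Commute u v := by
    intro m hm hmc hns u hu v hv huc hvc hum hvm
    exact line_trans R hc hu hm hv huc hmc hvc hns hum hvm.symm
  have hac' : ¬ SimR D a c := fun hs => hab ((comm_sim R ha hc hb hs).2 hbc).symm
  have hbc' : ¬ SimR D b c := fun hs => hab ((comm_sim R hb hc ha hs).2 hac)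
  have ka := key a ha hac hac'
  have kb := key b hb hbc hbc'
  by_contra hcon
  push Not at hcon
  have d1 := hcon t₁ h1 c1
  have d2 := hcon t₂ h2 c2
  have d3 := hcon t₃ h3 c3
  by_cases a1 : Commute t₁ a
  · by_cases a2 : Commute t₂ a
    · exact n12 (ka t₁ h1 t₂ h2 c1 c2 a1 a2)
    · by_cases a3 : Commute t₃ a
      · exact n13 (ka t₁ h1 t₃ h3 c1 c3 a1 a3)
      · exact n23 (kb t₂ h2 t₃ h3 c2 c3 (d2 a2) (d3 a3))
  · by_cases a2 : Commute t₂ a
    · by_cases a3 : Commute t₃ a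
      · exact n23 (ka t₂ h2 t₃ h3 c2 c3 a2 a3)
      · exact n13 (kb t₁ h1 t₃ h3 c1 c3 (d1 a1) (d3 a3))
    · exact n12 (kb t₁ h1 t₂ h2 c1 c2 (d1 a1) (d2 a2))

/-! ### Coordinates -/

theorem card_F (R : R2 D) (c : NC D f y p x) : Fintype.card F = Nat.card (EG D (f 1)) := by
  have hbij : Function.Bijective
      (fun s : F => (⟨f s, (c.f_iff _).2 ⟨s, rfl⟩⟩ : EG D (f 1))) := by
    constructor
    · intro s t hst
      exact a_inj c.two c.f_add (fun s hs => R.ne_one (c.f_D s hs)) (congrArg Subtype.val hst)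
    · rintro ⟨g, hg⟩
      obtain ⟨s, hs⟩ := (c.f_iff g).1 hg
      exact ⟨s, Subtype.ext hs.symm⟩
  rw [← Nat.card_eq_of_bijective _ hbij, Nat.card_eq_fintype_card]

theorem card_F' (R : R2 D) (c : NC D f y p x) {d : G} (hd : d ∈ D) :
    Fintype.card F = Nat.card (EG D d) := by
  rw [card_F R c]; exact R.N.card_EG (c.f_D 1 one_ne_zero) hd

theorem wN_swap (c : NC D f y p x) {s : F} (hs : s ≠ 0) : wN x f s = wN f x s⁻¹ := by
  have h1 := c.fx s⁻¹ (inv_ne_zero hs)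
  unfold wN
  rw [h1, inv_inv]

theorem hN_swap (c : NC D f y p x) {s : F} (hs : s ≠ 0) : hN x f s = hN f x s⁻¹ := by
  unfold hN
  rw [wN_swap c one_ne_zero, wN_swap c hs, inv_one]

/-- `w(s)` is conjugated to some `w(s')` by an element fixing `E(f)` and `E(x)`. -/
theorem conj_w (R : R2 D) (c : NC D f y p x) {k : G} (hf : Fix D k (f 1)) (hx : Fix D k (x 1))
    {s : F} (hs : s ≠ 0) : ∃ s', s' ≠ 0 ∧ k * wN f x s * k⁻¹ = wN f x s' := by
  have hf1 := c.f_D 1 one_ne_zero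
  have hx1 := c.x_D 1 one_ne_zero
  have hwD := NC.w_D R c hs
  refine NC.exists_w R c (R.h.conj_mem _ hwD k) ?_
  -- `k⁻¹ f k ∈ E(f)`
  have h1 : k⁻¹ * f 1 * k ∈ EG D (f 1) := by
    have h2 : SimR D (k⁻¹ * f 1 * k⁻¹⁻¹) (f 1) := hf.inv R
    rw [inv_inv] at h2
    have h3 : k⁻¹ * f 1 * k ∈ D := by
      have := R.h.conj_mem _ hf1 k⁻¹
      rwa [inv_inv] at this
    exact R.mem_of_sim h3 h2
  obtain ⟨u, hu⟩ := (c.f_iff _).1 h1
  have h2 : k⁻¹ * f 1 * k ≠ 1 := by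
    intro h0
    apply R.ne_one hf1
    calc f 1 = k * (k⁻¹ * f 1 * k) * k⁻¹ := by group
      _ = 1 := by rw [h0]; group
  have h3 : wN f x s * (k⁻¹ * f 1 * k) * wN f x s ∈ EG D (x 1) := by
    rw [hu, NC.w_f R c hs]; exact (c.x_iff _).2 ⟨_, rfl⟩
  have e1 : k * wN f x s * k⁻¹ * f 1 * (k * wN f x s * k⁻¹) =
      k * (wN f x s * (k⁻¹ * f 1 * k) * wN f x s) * k⁻¹ := by group
  rw [e1]
  have h4 := R.EG_conj h3 k
  rwa [R.EG_eq hx1 (R.mem_of_sim (R.h.conj_mem _ hx1 k) hx) (R.ne_one (R.h.conj_mem _ hx1 k))] at h4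

/-- An element conjugated by `k` from the torus fixes everything which the torus fixes. -/
theorem conj_hN_fix (R : R2 D) (c : NC D f y p x) {k a : G} (hf : Fix D k (f 1))
    (hx : Fix D k (x 1)) (ha : ∀ s : F, s ≠ 0 → Fix D (hN f x s) a) {s : F} (hs : s ≠ 0) :
    Fix D (k * hN f x s * k⁻¹) a := by
  obtain ⟨s₁, hs₁, e1⟩ := conj_w R c hf hx (s := 1) one_ne_zero
  obtain ⟨s₂, hs₂, e2⟩ := conj_w R c hf hx hs
  have e3 : k * hN f x s * k⁻¹ = (hN f x s₁)⁻¹ * hN f x s₂ := by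
    unfold hN
    calc k * (wN f x 1 * wN f x s) * k⁻¹ = (k * wN f x 1 * k⁻¹) * (k * wN f x s * k⁻¹) := by group
      _ = wN f x s₁ * wN f x s₂ := by rw [e1, e2]
      _ = (wN f x s₁)⁻¹ * wN f x s₂ := by rw [R.inv (NC.w_D R c hs₁)]
      _ = _ := by group
  rw [e3]
  exact ((ha s₁ hs₁).inv R).mul R (ha s₂ hs₂)

/-- near pairs: a member of the class with product of order 3. -/
theorem near_cube (R : R2 D) {z u w : G} (hz : z ∈ D) (hu : u ∈ D) (hw : w ∈ D) (hn : Near D z u)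
    (hswap : w * z * w ∈ EG D u) : ∃ z' ∈ EG D z, z' ≠ 1 ∧ z' * w * z' = w * z' * w := by
  obtain ⟨F, iF, iF', -, hcard, -⟩ := R.psl z hz u hu hn
  obtain ⟨ho, m, hm, hmz, hmu⟩ := hn
  obtain ⟨h1, p, hp, hpm, hpu, hzp, -⟩ := path_of_near R hz hu hm ho hmz hmu
  obtain ⟨f', y', p', x', c, s1, s2, s3, s4⟩ := exists_NC R hz hm hp hu hmz.symm hpm.symm hpu hzp h1
    hcard
  have hf1 : f' 1 ∈ D := c.f_D 1 one_ne_zero
  have hx1 : x' 1 ∈ D := c.x_D 1 one_ne_zero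
  have hwinv := R.inv hw
  have h2 : w * f' 1 * w ∈ EG D (x' 1) := by
    have h3 : SimR D (w * f' 1 * w⁻¹) (w * z * w⁻¹) := (simR_conj_iff R.h w _ _).2 s1
    rw [hwinv] at h3
    have hwz : w * z * w ∈ D := conj_mem' R.h hz hw
    have h4 : SimR D (w * z * w) u := R.sim hu hswap (R.ne_one hwz)
    exact R.mem_of_sim (conj_mem' R.h hf1 hw) (h3.trans (h4.trans s4.symm))
  obtain ⟨s, hs, hws⟩ := NC.exists_w R c hw h2
  have h5 := NC.cube c hs
  rw [← hws] at h5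
  have hD := c.f_D s hs
  have h6 := R.sim hf1 ((c.f_iff _).2 ⟨s, rfl⟩) (R.ne_one hD)
  exact ⟨f' s, R.mem_of_sim hD (h6.trans s1), R.ne_one hD, h5⟩

theorem mem_BG {b : G} : b ∈ BG D f y p x ↔ b ∈ MG D (y 1) ∧ b ∈ MG D (p 1) ∧
    (∀ s, Commute b (f s)) ∧ ∀ s, Commute b (x s) := by
  unfold BG
  rw [Subgroup.mem_inf, Subgroup.mem_inf, Subgroup.mem_centralizer_iff]
  constructor
  · rintro ⟨⟨h1, h2⟩, h3⟩
    exact ⟨h1, h2, fun s => (h3 _ (Or.inl ⟨s, rfl⟩)).symm, fun s => (h3 _ (Or.inr ⟨s, rfl⟩)).symm⟩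
  · rintro ⟨h1, h2, h3, h4⟩
    refine ⟨⟨h1, h2⟩, ?_⟩
    rintro h (⟨s, rfl⟩ | ⟨s, rfl⟩)
    · exact (h3 s).symm.eq
    · exact (h4 s).symm.eq

/-- `B` is transitive on the lines on `x` other than `px`. -/
theorem B_trans (R : R2 D) (c : NC D f y p x) {e : G} (he : e ∈ D) (hep : Commute e (p 1))
    (hey : ¬ Commute e (y 1)) (hex : ¬ Commute e (x 1)) {g v : G} (hg : g ∈ D)
    (hgx : Commute g (x 1)) (hgp : ¬ Commute g (p 1)) (hv : v ∈ D) (hvx : Commute v (x 1))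
    (hvp : ¬ Commute v (p 1)) : ∃ b ∈ BG D f y p x, Commute (b * g * b⁻¹) v := by
  have hp1 := c.p_D 1 one_ne_zero
  have hx1 := c.x_D 1 one_ne_zero
  have hy1 := c.y_D 1 one_ne_zero
  have hxy : ¬ Commute (x 1) (y 1) := by
    intro hh
    have h1 := c.xy 1 1
    rw [hh.eq, mul_assoc, R.sq hx1, one_mul] at h1
    exact R.ne_one hp1 (by simpa using h1)
  obtain ⟨v', x', p', y', c3, s1, s2, s3, s4⟩ := exists_NC R hv hx1 hp1 hy1 hvx (c.px 1 1).symm
    (c.yp 1 1).symm hvp hxy (card_F' R c hv)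
  have hv' := c3.f_D 1 one_ne_zero
  have hx' := c3.y_D 1 one_ne_zero
  have hp' := c3.p_D 1 one_ne_zero
  obtain ⟨k, hk, hkx, hkg⟩ := trans R c3 hg ((comm_sim R hx' hx1 hg s2).2 hgx)
    (fun hh => hgp ((comm_sim R hp' hp1 hg s3).1 hh))
  have hk' : k ∈ MG D (p 1) := by rwa [R.MG_eq_of_sim hp1 hp' s3] at hk
  have hxp : ¬ SimR D (x' 1) (p 1) := by
    intro hs
    exact hxy ((comm_sim R hx1 hp1 hy1 (s2.symm.trans hs)).2 (c.yp 1 1)).symm
  have hkx' : Commute k (x 1) :=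
    R.comm_class hp1 hx' ((comm_sim R hx' hx1 hp1 s2).2 (c.px 1 1)).symm hxp hk' hkx
      (R.mem_of_sim hx1 s2.symm)
  obtain ⟨b, hb, hkb⟩ := decomp_x R c he hep hey hex hk' hkx'
  refine ⟨b⁻¹, inv_mem hb, ?_⟩
  have hbx : Commute b (x 1) := (mem_BG.1 hb).2.2.2 1
  set g' : G := b⁻¹ * g * b⁻¹⁻¹ with hg'
  have hg'D : g' ∈ D := R.h.conj_mem g hg _
  have hg'x : Commute g' (x 1) := by
    have h1 : Commute (b⁻¹ * g * b⁻¹⁻¹) (b⁻¹ * x 1 * b⁻¹⁻¹) := conj_commute_iff.2 hgx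
    rwa [conj_eq_of_comm hbx.inv_left] at h1
  -- `k g k⁻¹ = (k b) g' (k b)⁻¹`
  have e1 : k * g * k⁻¹ = (k * b) * g' * (k * b)⁻¹ := by rw [hg']; group
  have h1 : Commute (k * g * k⁻¹) g' := by rw [e1]; exact MG_line R hx1 hkb hg'D hg'x
  have h2 : Commute (k * g * k⁻¹) v := by
    exact (comm_sim R hv' hv (R.h.conj_mem g hg k) s1).1 hkg
  have h3 : Commute (k * g * k⁻¹) (x 1) := by
    have h4 : Commute (k * g * k⁻¹) (k * x 1 * k⁻¹) := conj_commute_iff.2 hgx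
    rwa [conj_eq_of_comm hkx'] at h4
  have h4 : ¬ SimR D (k * g * k⁻¹) (x 1) := by
    intro hs
    have h5 : SimR D (k * g * k⁻¹) (k * x 1 * k⁻¹) := by rw [conj_eq_of_comm hkx']; exact hs
    have h6 := (simR_conj_iff R.h k _ _).1 h5
    exact hgp ((comm_sim R hg hx1 hp1 h6).2 (c.px 1 1)).symm
  exact line_trans R hx1 hg'D (R.h.conj_mem g hg k) hv hg'x h3 hvx h4 h1.symm h2

/-- If all points of one line on `x`, other than `px`, are opposite to `f`, the same holds for all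
these lines. -/
theorem all_opp (R : R2 D) (c : NC D f y p x) {e : G} (he : e ∈ D) (hep : Commute e (p 1))
    (hey : ¬ Commute e (y 1)) (hex : ¬ Commute e (x 1)) {v : G} (hv : v ∈ D)
    (hvx : Commute v (x 1)) (hvp : ¬ Commute v (p 1))
    (hopp : ∀ s ∈ D, Commute s (x 1) → Commute s v → Opp s (f 1)) {u : G} (hu : u ∈ D)
    (hux : Commute u (x 1)) (hup : ¬ Commute u (p 1)) : Opp u (f 1) := by
  obtain ⟨b, hb, h1⟩ := B_trans R c he hep hey hex hu hux hup hv hvx hvp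
  have hbx : Commute b (x 1) := (mem_BG.1 hb).2.2.2 1
  have hbf : Commute b (f 1) := (mem_BG.1 hb).2.2.1 1
  have h3 : Commute (b * u * b⁻¹) (x 1) := by
    have h4 : Commute (b * u * b⁻¹) (b * x 1 * b⁻¹) := conj_commute_iff.2 hux
    rwa [conj_eq_of_comm hbx] at h4
  have h4 := hopp _ (R.h.conj_mem u hu b) h3 h1
  have h5 : Opp (b * u * b⁻¹) (b * f 1 * b⁻¹) := by rw [conj_eq_of_comm hbf]; exact h4
  exact (opp_conj b u (f 1)).1 h5

end Cfsg.Agent.H739.FE
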