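import Mathlib
import Cfsg.Agent.H739.FarE3
import Cfsg.Agent.H737.FarC
import Cfsg.Agent.H736.FarS

/-!
# Root involutions without planes: there are no far pairs
-/

set_option autoImplicit false
set_option linter.unusedSectionVars false

namespace Cfsg.Agent.H739.FE

open Cfsg Cfsg.Agent.H737 Cfsg.Agent.H736.Hole Cfsg.Agent.H737.Far

variable {G : Type*} [Group G] {D : Set G} {F : Type} [Field F] [Fintype F]
variable [Finite G] {f y p x : F → G}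

/-- The situation: `d₀` is a point on a line on `f`, far from `x`, fixed by the torus. -/
structure Sit (D : Set G) (f y p x : F → G) (d₀ : G) : Prop where
  c : NC D f y p x
  hd : d₀ ∈ D
  hdf : Commute d₀ (f 1)
  hdy : ¬ Commute d₀ (y 1)
  far : ∀ z ∈ D, Commute z d₀ → Opp z (x 1)
  fix : ∀ s : F, s ≠ 0 → Fix D (hN f x s) d₀

namespace Sit

variable {d₀ : G}

theorem f1 (S : Sit D f y p x d₀) : f 1 ∈ D := S.c.f_D 1 one_ne_zero
theorem y1 (S : Sit D f y p x d₀) : y 1 ∈ D := S.c.y_D 1 one_ne_zero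
theorem p1 (S : Sit D f y p x d₀) : p 1 ∈ D := S.c.p_D 1 one_ne_zero
theorem x1 (S : Sit D f y p x d₀) : x 1 ∈ D := S.c.x_D 1 one_ne_zero
theorem w1 (R : R2 D) (S : Sit D f y p x d₀) : wN f x 1 ∈ D := NC.w_D R S.c one_ne_zero

theorem ncfp (R : R2 D) (S : Sit D f y p x d₀) : ¬ Commute (f 1) (p 1) := by
  intro hh
  have h1 := S.c.fp 1 1
  rw [hh.eq, mul_assoc, R.sq S.f1, mul_one] at h1
  exact R.ne_one S.y1 (by simpa using h1)

theorem ncyx (R : R2 D) (S : Sit D f y p x d₀) : ¬ Commute (y 1) (x 1) := by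
  intro hh
  have h1 := S.c.xy 1 1
  rw [hh.symm.eq, mul_assoc, R.sq S.x1, mul_one] at h1
  exact R.ne_one S.p1 (by simpa using h1)

/-- `f` is near `x`. -/
theorem near (R : R2 D) (S : Sit D f y p x d₀) : Near D (f 1) (x 1) :=
  ⟨S.c.opp 1 1 one_ne_zero one_ne_zero, y 1, S.y1, (S.c.fy 1 1).symm,
    not_opp_of_comm R S.x1 S.p1 S.y1 (S.c.px 1 1).symm (S.c.yp 1 1)⟩

/-- `h_s` fixes `x`. -/
theorem fix_x (R : R2 D) (S : Sit D f y p x d₀) {s : F} (hs : s ≠ 0) :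
    Fix D (hN f x s) (x 1) := by
  unfold Fix
  rw [NC.h_x R S.c hs]
  exact R.sim S.x1 ((S.c.x_iff _).2 ⟨_, rfl⟩)
    (R.ne_one (S.c.x_D _ (mul_ne_zero (mul_ne_zero one_ne_zero hs) hs)))

theorem fix_p (R : R2 D) (S : Sit D f y p x d₀) {s : F} (hs : s ≠ 0) :
    Fix D (hN f x s) (p 1) := by
  unfold Fix
  rw [NC.h_p S.c hs]
  exact R.sim S.p1 ((S.c.p_iff _).2 ⟨_, rfl⟩)
    (R.ne_one (S.c.p_D _ (mul_ne_zero one_ne_zero hs)))

theorem w_sq (R : R2 D) (S : Sit D f y p x d₀) : wN f x 1 * wN f x 1 = 1 := R.sq (S.w1 R)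

theorem w_f (R : R2 D) (S : Sit D f y p x d₀) : wN f x 1 * f 1 * wN f x 1 = x 1 := by
  rw [NC.w_f R S.c one_ne_zero]; simp

theorem w_y (R : R2 D) (S : Sit D f y p x d₀) : wN f x 1 * y 1 * wN f x 1 = p 1 := by
  rw [NC.w_y S.c one_ne_zero]; simp

theorem vD (R : R2 D) (S : Sit D f y p x d₀) : wN f x 1 * d₀ * wN f x 1 ∈ D :=
  conj_mem' R.h S.hd (S.w1 R)

theorem cw (R : R2 D) (S : Sit D f y p x d₀) {a b : G} :
    Commute (wN f x 1 * a * wN f x 1) (wN f x 1 * b * wN f x 1) ↔ Commute a b := by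
  have := commute_conj_iff' (wN f x 1) a b
  rwa [R.inv (S.w1 R)] at this

theorem vx (R : R2 D) (S : Sit D f y p x d₀) : Commute (wN f x 1 * d₀ * wN f x 1) (x 1) := by
  rw [← S.w_f R]; exact (S.cw R).2 S.hdf

theorem vp (R : R2 D) (S : Sit D f y p x d₀) : ¬ Commute (wN f x 1 * d₀ * wN f x 1) (p 1) := by
  rw [← S.w_y R]; exact fun h => S.hdy ((S.cw R).1 h)

/-- The torus fixes `w₁ d₀ w₁`. -/
theorem fix_v (R : R2 D) (S : Sit D f y p x d₀) {s : F} (hs : s ≠ 0) :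
    Fix D (hN f x s) (wN f x 1 * d₀ * wN f x 1) := by
  have h1 := (S.fix s hs).inv R
  unfold Fix at h1 ⊢
  have h2 := (simR_conj_iff R.h (wN f x 1) _ _).2 h1
  rw [R.inv (S.w1 R)] at h2
  have e : hN f x s * (wN f x 1 * d₀ * wN f x 1) * (hN f x s)⁻¹ =
      wN f x 1 * ((hN f x s)⁻¹ * d₀ * (hN f x s)⁻¹⁻¹) * wN f x 1 := by
    unfold hN
    rw [mul_inv_rev, R.inv (S.w1 R), R.inv (NC.w_D R S.c hs)]
    have h3 : wN f x s * wN f x s = 1 := R.sq (NC.w_D R S.c hs)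
    have h4 := S.w_sq R
    rw [mul_inv_rev, R.inv (S.w1 R), R.inv (NC.w_D R S.c hs)]
    group
  rw [e]; exact h2

/-- The torus fixes exactly the points `x` and `w₁ d₀ w₁` of the line of `w₁ d₀ w₁` on `x`. -/
theorem fixed_eq (R : R2 D) (S : Sit D f y p x d₀) {u : G} (hu : u ∈ D) (hux : Commute u (x 1))
    (hup : ¬ Commute u (p 1)) (huv : Commute u (wN f x 1 * d₀ * wN f x 1))
    (hfix : ∀ s : F, s ≠ 0 → Fix D (hN f x s) u) : SimR D u (wN f x 1 * d₀ * wN f x 1) := by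
  have hv := S.vD R
  have hvx := S.vx R
  have hvp := S.vp R
  obtain ⟨t, ht0, ht1⟩ := S.c.q
  have cs := NC.swap S.c
  have hinv : ∀ s : F, s ≠ 0 → Commute (hN x f s * (wN f x 1 * d₀ * wN f x 1) * (hN x f s)⁻¹)
      (wN f x 1 * d₀ * wN f x 1) := by
    intro s hs
    rw [hN_swap S.c hs]
    exact ((S.fix_v R (inv_ne_zero hs)).commute_iff R hv hv).2 (Commute.refl _)
  obtain ⟨v₀, hv₀, -, -, -, -, huniq⟩ := exists_fixed_point R cs hv hvx hvp hinv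
  have key : ∀ a ∈ D, (∀ s : F, s ≠ 0 → Fix D (hN f x s) a) →
      ∃ s : F, s ≠ 0 ∧ s ≠ 1 ∧ hN x f s * a * (hN x f s)⁻¹ ∈ EG D a := by
    intro a ha hfa
    refine ⟨t, ht0, ht1, ?_⟩
    rw [hN_swap S.c ht0]
    exact R.mem_of_sim (R.h.conj_mem a ha _) (hfa _ (inv_ne_zero ht0))
  have k1 := huniq u hu huv hux hup (key u hu hfix)
  have k2 := huniq _ hv (Commute.refl _) hvx hvp (key _ hv fun s hs => S.fix_v R hs)
  exact (R.sim hv₀ k1 (R.ne_one hu)).trans (R.sim hv₀ k2 (R.ne_one hv)).symm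

/-- Step (10). -/
theorem end_step (R : R2 D) (S : Sit D f y p x d₀) {u : G} (hu : u ∈ D)
    (hux : Commute u (x 1)) (hup : ¬ Commute u (p 1))
    (huv : Commute u (wN f x 1 * d₀ * wN f x 1)) (hn : Near D u d₀) : False := by
  have hv := S.vD R
  have hvx := S.vx R
  have hvp := S.vp R
  have hf1 := S.f1
  have hx1 := S.x1
  have hw1 := S.w1 R
  have hfar' := far_symm R S.hd S.x1 S.far
  have hvns : ¬ SimR D (wN f x 1 * d₀ * wN f x 1) (x 1) := fun hs =>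
    hvp ((comm_sim R hv hx1 S.p1 hs).2 (S.c.px 1 1)).symm
  -- the torus fixes `u`
  have hfix : ∀ s : F, s ≠ 0 → Fix D (hN f x s) u := by
    intro s hs
    set k : G := hN f x s with hk
    have hku : k * u * k⁻¹ ∈ D := R.h.conj_mem u hu k
    have h1 : Commute (k * u * k⁻¹) (x 1) := ((S.fix_x R hs).commute_iff R hx1 hu).2 hux
    have h2 : Commute (k * u * k⁻¹) (wN f x 1 * d₀ * wN f x 1) :=
      ((S.fix_v R hs).commute_iff R hv hu).2 huv
    have h3 : Near D (k * u * k⁻¹) d₀ :=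
      near_sim_right R hku (R.h.conj_mem _ S.hd k) S.hd (near_conj R hn k) (S.fix s hs).symm
    have h4 : Commute (k * u * k⁻¹) u :=
      line_trans R hx1 hku hv hu h1 hvx hux hvns h2 huv.symm
    by_contra hns
    refine near_unique R hu hku S.hd h4 hns ?_ hn h3
    intro t ht ht1
    have hc := col R hu hku h4 hns
    have htD := R.N.LS_mem hc ht ht1
    refine hfar' t htD ?_
    obtain ⟨a, ha, b, hb, rfl⟩ := (R.N.mem_LS hc).1 ht
    exact ((R.comm_EG hu hx1 hux.symm ha).symm).mul_left (R.comm_EG hku hx1 h1.symm hb).symm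
  have hs := S.fixed_eq R hu hux hup huv hfix
  have hn2 : Near D (wN f x 1 * d₀ * wN f x 1) d₀ := near_sim_left R hu hv S.hd hn hs.symm
  have hn3 : Near D d₀ (wN f x 1 * d₀ * wN f x 1) := near_symm R hv S.hd hn2
  obtain ⟨z, hz, hz1, hzc⟩ := near_cube R S.hd hv hw1 hn3 (R.self_mem hv)
  have hzD := R.mem_D S.hd hz hz1
  have hzf : Commute (f 1) z := R.comm_EG S.hd hf1 S.hdf.symm hz
  have hzd : Commute z d₀ := (R.EG_comm S.hd (R.self_mem S.hd) hz).symm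
  refine G1 R hw1 hf1 hzD hzf ?_ (NC.cube S.c one_ne_zero) hzc
  -- `f₁ z` is opposite to `w₁ = f₁ x₁ f₁`
  have hzns : ¬ SimR D z (f 1) := by
    intro h1
    have h2 : SimR D d₀ (f 1) := (R.sim S.hd hz hz1).symm.trans h1
    exact S.hdy ((comm_sim R S.hd hf1 S.y1 h2).2 (S.c.fy 1 1).symm).symm
  have hc := col R hf1 hzD hzf.symm hzns
  have hfzne : f 1 * z ≠ 1 := by
    intro h0
    apply hzns
    have : z = f 1 := by
      calc z = (f 1 * f 1) * z := by rw [R.sq hf1, one_mul]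
        _ = f 1 * (f 1 * z) := by group
        _ = f 1 := by rw [h0, mul_one]
    rw [this]; exact SimR.refl D _
  have hfzL : f 1 * z ∈ LS D (f 1) z :=
    (R.N.mem_LS hc).2 ⟨f 1, R.self_mem hf1, z, R.self_mem hzD, rfl⟩
  have hfzD := R.N.LS_mem hc hfzL hfzne
  have h5 : Opp (f 1 * z) (x 1) :=
    S.far _ hfzD (S.hdf.symm.mul_left hzd)
  have h6 := (opp_conj (f 1) (f 1 * z) (x 1)).2 h5
  rw [R.inv hf1] at h6
  have e1 : f 1 * (f 1 * z) * f 1 = f 1 * z := by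
    rw [hzf.eq, ← mul_assoc, hzf.eq, mul_assoc, R.sq hf1, mul_one]
  have e2 : wN f x 1 = f 1 * x 1 * f 1 := by unfold wN; rw [inv_one]
  rw [e2, ← e1]; exact h6

/-- Step (8). -/
theorem swap_step (R : R2 D) (S : Sit D f y p x d₀) {w : G} (hw : w ∈ D)
    (hwd : w * d₀ * w = x 1) : Commute (w * f 1 * w) (x 1) ∧ ¬ Commute (w * f 1 * w) (p 1) ∧
      Near D (w * f 1 * w) d₀ := by
  have hwinv := R.inv hw
  have hf1 := S.f1
  have hx1 := S.x1
  have hp1 := S.p1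
  have hu : w * f 1 * w ∈ D := conj_mem' R.h hf1 hw
  have hux : Commute (w * f 1 * w) (x 1) := by
    rw [← hwd]
    have := (commute_conj_iff' w (f 1) d₀).2 S.hdf.symm
    rwa [hwinv] at this
  have hwx : w * x 1 * w = d₀ := by
    rw [← hwd]
    calc w * (w * d₀ * w) * w = (w * w) * d₀ * (w * w) := by group
      _ = d₀ := by rw [R.sq hw, one_mul, mul_one]
  have hn : Near D (w * f 1 * w) d₀ := by
    have := near_conj R (S.near R) w
    rwa [hwinv, hwx] at this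
  refine ⟨hux, ?_, hn⟩
  intro hup
  have hfar' := far_symm R S.hd S.x1 S.far
  by_cases hs : SimR D (w * f 1 * w) (p 1)
  · exact w_trick R hf1 S.y1 hp1 hw (S.c.fy 1 1) (S.c.yp 1 1) (S.ncfp R) (R.mem_of_sim hu hs)
  · have hnp : Near D (p 1) d₀ :=
      ⟨hfar' _ hp1 (S.c.px 1 1), y 1, S.y1, S.c.yp 1 1,
        not_opp_of_comm R S.hd hf1 S.y1 S.hdf (S.c.fy 1 1).symm⟩
    refine near_unique R hp1 hu S.hd hup hs ?_ hnp hn
    intro t ht ht1
    have hc := col R hp1 hu hup hs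
    have htD := R.N.LS_mem hc ht ht1
    refine hfar' t htD ?_
    obtain ⟨a, ha, b, hb, rfl⟩ := (R.N.mem_LS hc).1 ht
    exact ((R.comm_EG hp1 hx1 (S.c.px 1 1).symm ha).symm).mul_left
      (R.comm_EG hu hx1 hux.symm hb).symm

/-- The case of two lines on a point. -/
theorem two (R : R2 D) (S : Sit D f y p x d₀) (hT : ¬ Three D (x 1)) : False := by
  have hdx : Opp d₀ (x 1) := S.far d₀ S.hd (Commute.refl _)
  obtain ⟨l, w, hw, -, hwd, -⟩ := exists_swap (R.sq S.hd) (R.sq S.x1) hdx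
  have hwD : w ∈ D := by rw [hw]; exact R.h.conj_mem _ S.hd _
  obtain ⟨h1, h2, h3⟩ := S.swap_step R hwD hwd
  have hu : w * f 1 * w ∈ D := conj_mem' R.h S.f1 hwD
  refine S.end_step R hu h1 h2 ?_ h3
  by_contra h4
  exact hT ⟨_, hu, _, S.vD R, p 1, S.p1, h1, S.vx R, S.c.px 1 1, h4, h2, S.vp R⟩

/-- The case of three lines on a point. -/
theorem three (R : R2 D) (S : Sit D f y p x d₀) (hT : Three D (x 1)) : False := by
  have hf1 := S.f1
  have hy1 := S.y1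
  have hp1 := S.p1
  have hx1 := S.x1
  obtain ⟨f2, y2, p2, x2, c2, s1, s2, s3, s4⟩ := exists_NC R S.hd hf1 hy1 hp1 S.hdf (S.c.fy 1 1)
    (S.c.yp 1 1) S.hdy (S.ncfp R) (card_F' R S.c S.hd)
  have hd2 : f2 1 ∈ D := c2.f_D 1 one_ne_zero
  have hy2 : y2 1 ∈ D := c2.y_D 1 one_ne_zero
  have hp2 : p2 1 ∈ D := c2.p_D 1 one_ne_zero
  have hx2 : x2 1 ∈ D := c2.x_D 1 one_ne_zero
  -- replace `d₀` by `f2 1`
  have S2 : Sit D f y p x (f2 1) :=
    { c := S.c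
      hd := hd2
      hdf := ((comm_sim R hd2 S.hd hf1 s1).2 S.hdf.symm).symm
      hdy := fun hh => S.hdy ((comm_sim R hd2 S.hd hy1 s1).1 hh.symm).symm
      far := fun z hz hzd => S.far z hz ((comm_sim R hd2 S.hd hz s1).1 hzd)
      fix := fun s hs => (S.fix s hs).sim R s1 }
  clear S
  have hncfp := S2.ncfp R
  have hncyx := S2.ncyx R
  obtain ⟨ey, hey, ey1, ey2, ey3⟩ := third R hy1 (three_all R hx1 hy1 hT) hf1 hp1
    (S2.c.fy 1 1) (S2.c.yp 1 1).symm hncfp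
  obtain ⟨ep, hep, ep1, ep2, ep3⟩ := third R hp1 (three_all R hx1 hp1 hT) hy1 hx1
    (S2.c.yp 1 1) (S2.c.px 1 1).symm hncyx
  obtain ⟨ef, hef, ef1, ef2, ef3⟩ := third R hf1 (three_all R hx1 hf1 hT) hy1 hd2
    (S2.c.fy 1 1).symm S2.hdf (fun hh => S2.hdy hh.symm)
  -- the second torus fixes all lines on `p` and on `d₀`
  have hlp : ∀ g ∈ D, Commute g (p 1) → ∀ s : F, s ≠ 0 →
      Commute (hN f2 x2 s * g * (hN f2 x2 s)⁻¹) g := by
    intro g hg hgp s hs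
    refine h_line R c2 hey ((comm_sim R hp2 hy1 hey s3).2 ey1)
      (fun hh => ey2 ((comm_sim R hy2 hf1 hey s2).1 hh))
      (fun hh => ey3 ((comm_sim R hx2 hp1 hey s4).1 hh)) hg ((comm_sim R hx2 hp1 hg s4).2 hgp) hs
  have hld : ∀ g ∈ D, Commute g (f2 1) → ∀ s : F, s ≠ 0 →
      Commute (hN f2 x2 s * g * (hN f2 x2 s)⁻¹) g := by
    intro g hg hgd s hs
    have h1 := h_line R (NC.swap c2) hef ((comm_sim R hy2 hf1 hef s2).2 ef1)
      (fun hh => ef2 ((comm_sim R hp2 hy1 hef s3).1 hh)) ef3 hg hgd (inv_ne_zero hs)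
    rwa [hN_swap c2 (inv_ne_zero hs), inv_inv] at h1
  have hH : ∀ s : F, s ≠ 0 → hN f x s * f2 1 * (hN f x s)⁻¹ ∈ EG D (f2 1) := fun s hs =>
    R.mem_of_sim (R.h.conj_mem _ hd2 _) (S2.fix s hs)
  have h5 := Cfsg.Agent.H736.FarS.step5 R S2.c c2 s2 s3 s4 hH
    (fun s hs => hlp _ hx1 (S2.c.px 1 1).symm s hs)
  -- the swapping member
  have hdx : Opp (f2 1) (x 1) := S2.far _ hd2 (Commute.refl _)
  obtain ⟨l, w, hw, -, hwd, -⟩ := exists_swap (R.sq hd2) (R.sq hx1) hdx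
  have hwD : w ∈ D := by rw [hw]; exact R.h.conj_mem _ hd2 _
  obtain ⟨k1, k2, k3⟩ := S2.swap_step R hwD hwd
  have hu : w * f 1 * w ∈ D := conj_mem' R.h hf1 hwD
  refine S2.end_step R hu k1 k2 ?_ k3
  refine Cfsg.Agent.H736.FarS.step7 R S2.c c2 s2 s3 s4 hH h5 hey ey1 ey3 ey2 hep ep1 ep2 ep3
    hu k1 k2 ?_
  intro s hs
  have hσd : hN f2 x2 s * f2 1 * (hN f2 x2 s)⁻¹ ∈ EG D (f2 1) := by
    rw [NC.h_f R c2 hs]; exact (c2.f_iff _).2 ⟨_, rfl⟩
  have h6 := fix_chain R hd2 hf1 hy1 hp1 hx1 hwD S2.hdf (S2.c.fy 1 1) (S2.c.yp 1 1)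
    (S2.c.px 1 1) S2.hdy hncfp hncyx S2.far (by rw [hwd]; exact R.self_mem hx1) hσd (h5 s hs)
    (fun g hg hgd => hld g hg hgd s hs)
  exact (R.comm_EG hu hu (Commute.refl _) h6).symm

theorem false (R : R2 D) (S : Sit D f y p x d₀) : False := by
  by_cases hT : Three D (x 1)
  · exact S.three R hT
  · exact S.two R hT

end Sit

/-- **END**: no far pairs. -/
theorem no_far (R : R2 D) {f₀ x₀ d y₀ : G} (hf : f₀ ∈ D) (hx : x₀ ∈ D) (hd : d ∈ D) (hy : y₀ ∈ D)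
    (hfx : Opp f₀ x₀) (hfy : Commute y₀ f₀) (hyx : ¬ Opp y₀ x₀)
    (hdf : Commute d f₀) (hdf' : ¬ SimR D d f₀)
    (hfar : ∀ z ∈ D, Commute z d → Opp z x₀) : False := by
  have hn : Near D f₀ x₀ := ⟨hfx, y₀, hy, hfy, hyx⟩
  obtain ⟨F, iF, iF', -, hcard, -⟩ := R.psl f₀ hf x₀ hx hn
  obtain ⟨h1, p₀, hp, hpy, hpx, hfp, -⟩ := path_of_near R hf hx hy hfx hfy hyx
  obtain ⟨f, y, p, x, c, s1, s2, s3, s4⟩ := exists_NC R hf hy hp hx hfy.symm hpy.symm hpx hfp h1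
    hcard
  have hf1 : f 1 ∈ D := c.f_D 1 one_ne_zero
  have hy1 : y 1 ∈ D := c.y_D 1 one_ne_zero
  have hp1 : p 1 ∈ D := c.p_D 1 one_ne_zero
  have hx1 : x 1 ∈ D := c.x_D 1 one_ne_zero
  have hfar1 : ∀ z ∈ D, Commute z d → Opp z (x 1) := fun z hz hzd =>
    (opp_sim' R hx1 hx hz s4).2 (hfar z hz hzd)
  have hdy₀ : ¬ Commute d y₀ := fun hh => hyx (hfar y₀ hy hh.symm)
  have hdf1 : Commute d (f 1) := (comm_sim R hf1 hf hd s1).2 hdf
  have hdy1 : ¬ Commute d (y 1) := fun hh => hdy₀ ((comm_sim R hy1 hy hd s2).1 hh)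
  have hdns : ¬ SimR D d (f 1) := fun hs => hdf' (hs.trans s1)
  have hfy1 : Commute (f 1) (y 1) := c.fy 1 1
  have hncfp : ¬ Commute (f 1) (p 1) := fun hh =>
    hfp ((comm_sim R hp1 hp hf s3).1 ((comm_sim R hf1 hf hp1 s1).1 hh.symm).symm)
  have hcol := col R hf1 hd hdf1 hdns
  have hopp : ∀ s ∈ LS D (f 1) d, s ≠ 1 → Opp s (x 1) := by
    intro s hs hs1
    refine hfar1 s (R.N.LS_mem hcol hs hs1) ?_
    obtain ⟨a, ha, b, hb, rfl⟩ := (R.N.mem_LS hcol).1 hs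
    exact ((R.comm_EG hf1 hd hdf1 ha).symm).mul_left
      ((R.EG_comm hd (R.self_mem hd) hb).symm)
  have hn1 : Near D (f 1) (x 1) :=
    ⟨c.opp 1 1 one_ne_zero one_ne_zero, y 1, hy1, hfy1.symm,
      not_opp_of_comm R hx1 hp1 hy1 (c.px 1 1).symm (c.yp 1 1)⟩
  -- the torus fixes the line
  have hinv : ∀ s : F, s ≠ 0 → Commute (hN f x s * d * (hN f x s)⁻¹) d := by
    intro s hs
    by_cases hT : Three D (f 1)
    · obtain ⟨e, he, e1, e2, e3⟩ := third R hy1 (three_all R hf1 hy1 hT) hf1 hp1 hfy1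
        (c.yp 1 1).symm hncfp
      have h2 := h_line R (NC.swap c) he e1 e3 e2 hd hdf1 (inv_ne_zero hs)
      rwa [hN_swap c (inv_ne_zero hs), inv_inv] at h2
    · by_contra hno
      apply hT
      have hk : hN f x s * d * (hN f x s)⁻¹ ∈ D := R.h.conj_mem d hd _
      have hkf : Fix D (hN f x s) (f 1) := by
        unfold Fix
        rw [NC.h_f R c hs]
        exact R.sim hf1 ((c.f_iff _).2 ⟨_, rfl⟩) (R.ne_one (c.f_D _
          (mul_ne_zero (mul_ne_zero one_ne_zero (inv_ne_zero hs)) (inv_ne_zero hs))))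
      have hky : Fix D (hN f x s) (y 1) := by
        unfold Fix
        rw [NC.h_y c hs]
        exact R.sim hy1 ((c.y_iff _).2 ⟨_, rfl⟩) (R.ne_one (c.y_D _
          (mul_ne_zero one_ne_zero (inv_ne_zero hs))))
      exact ⟨_, hk, d, hd, y 1, hy1, (hkf.commute_iff R hf1 hd).2 hdf1, hdf1, hfy1.symm, hno,
        fun hh => hdy1 ((hky.commute_iff R hy1 hd).1 hh), hdy1⟩
  obtain ⟨d₀, hd₀, k1, k2, k3, k4, -⟩ := exists_fixed_point R c hd hdf1 hdy1 hinv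
  have hd₀L : d₀ ∈ LS D (f 1) d := R.line _ hf1 d hd d₀ hd₀ hdf1 hdns k2 k1
  have hd₀f : ¬ SimR D d₀ (f 1) := fun hs =>
    k3 ((comm_sim R hd₀ hf1 hy1 hs).2 hfy1.symm).symm
  have S : Sit D f y p x d₀ :=
    { c := c
      hd := hd₀
      hdf := k2
      hdy := k3
      far := fun z hz hzd => far_of_line R hf1 hd hx1 hdf1 hdns hopp hn1 hd₀L (R.ne_one hd₀)
        hd₀f hz hzd
      fix := fun s hs => R.sim hd₀ (k4 s hs) (R.ne_one (R.h.conj_mem _ hd₀ _)) }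
  exact S.false R

end Cfsg.Agent.H739.FE
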